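import Cfsg.Agent.Lib.Fischer.Plane

/-!
# Fischer spaces as line systems
-/

set_option autoImplicit false

namespace Cfsg.Lib.ThreeTr

open Subgroup Cfsg.LineSystem Cfsg.Lib.Fischer

variable {X Y : Type*} {L : Set (Set X)} {M : Set (Set Y)} {t : X → X → X} {s : Y → Y → Y}

/-- A line system given by the operation "third point". -/
structure PQd (L : Set (Set X)) (t : X → X → X) : Prop where
  mem : ∀ l, l ∈ L ↔ ∃ x y, t x y ≠ y ∧ l = {x, y, t x y}
  inv : ∀ x y, t x (t x y) = y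
  self : ∀ x, t x x = x
  symm : ∀ x y, t x y ≠ y → t y x = t x y

/-- The operation is distributive. -/
def Dist (t : X → X → X) : Prop := ∀ x y z, t x (t y z) = t (t x y) (t x z)

theorem lineMap_eq (h : IsPartialLinear L) {x y z : X} (h1 : z ≠ x) (h2 : z ≠ y) (h3 : x ≠ y) (h4 : {x, y, z} ∈ L) :
    lineMap L x y = z := by
  have e : ∃ z : X, z ≠ x ∧ z ≠ y ∧ x ≠ y ∧ ({x, y, z} : Set X) ∈ L := ⟨z, h1, h2, h3, h4⟩
  have := (h _ h4 _ e.choose_spec.2.2.2 x y h3 (by simp) (by simp) (by simp) (by simp)).le (show z ∈ _ by simp)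
  rw [lineMap, dif_pos e]
  simpa [h1, h2, eq_comm] using this

theorem lineMap_spec {x y : X} (h : lineMap L x y ≠ y) :
    lineMap L x y ≠ x ∧ x ≠ y ∧ {x, y, lineMap L x y} ∈ L := by
  unfold lineMap at h ⊢
  split_ifs at h ⊢ with e
  exacts [⟨e.choose_spec.1, e.choose_spec.2.2⟩, absurd rfl h]

theorem pqd_lineMap (h : IsPartialLinear L) (h3 : ∀ l ∈ L, l.ncard = 3) : PQd L (lineMap L) := by
  refine ⟨fun l => ⟨fun hl => ?_, ?_⟩, fun x y => ?_, fun x => by_contra fun e => (lineMap_spec e).2.1 rfl, fun x y e => ?_⟩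
  · obtain ⟨x, y, z, a, b, c, rfl⟩ := Set.ncard_eq_three.1 (h3 l hl)
    exact ⟨x, y, (lineMap_eq h b.symm c.symm a hl).symm ▸ ⟨c.symm, rfl⟩⟩
  · rintro ⟨x, y, e, rfl⟩
    exact (lineMap_spec e).2.2
  · by_cases e : lineMap L x y = y
    · rw [e, e]
    · obtain ⟨a, b, c⟩ := lineMap_spec e
      exact lineMap_eq h b.symm (Ne.symm e) a.symm (Set.pair_comm y _ ▸ c)
  · obtain ⟨a, b, c⟩ := lineMap_spec e
    exact lineMap_eq h e a b.symm (Set.insert_comm x y _ ▸ c)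

namespace PQd

variable (h : PQd L t)
include h

theorem ne {x y : X} (e : t x y ≠ y) : x ≠ y ∧ t x y ≠ x :=
  ⟨fun a => e (a ▸ h.self x), fun a => e (by rw [← h.inv x y, a, h.self, h.self])⟩

theorem inj (x : X) : Function.Injective (t x) := Function.LeftInverse.injective (h.inv x)

theorem col {l : Set X} (hl : l ∈ L) {a b : X} (ha : a ∈ l) (hb : b ∈ l) (ab : a ≠ b) :
    t a b ≠ b ∧ l = {a, b, t a b} := by
  obtain ⟨x, y, e, rfl⟩ := (h.mem l).1 hl
  obtain ⟨n1, n2⟩ := h.ne e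
  have a1 := h.symm x y e
  have a2 := h.inv x y
  have a3 := h.inv y x
  have a4 := (h.symm x _ (a2.trans_ne e.symm)).trans a2
  rw [a1] at a3
  have a5 := (h.symm y _ (a3.trans_ne n2.symm)).trans a3
  generalize a6 : t x y = z at *
  rcases ha with rfl | rfl | rfl <;> rcases hb with rfl | rfl | rfl <;>
    first | exact absurd rfl ab | exact ⟨by simp [*, Ne.symm], by ext; simp [*]; try tauto⟩

theorem partialLinear : IsPartialLinear L := fun _ hl _ hm _ _ e a b c d =>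
  (h.col hl a b e).2.trans (h.col hm c d e).2.symm

theorem ncard {l : Set X} (hl : l ∈ L) : l.ncard = 3 :=
  let ⟨x, y, e, f⟩ := (h.mem l).1 hl
  Set.ncard_eq_three.2 ⟨x, y, _, (h.ne e).1, (h.ne e).2.symm, e.symm, f⟩

theorem third {a b c : X} (hl : {a, b, c} ∈ L) (ab : a ≠ b) (h1 : c ≠ a) (h2 : c ≠ b) : t a b = c := by
  simpa [h1, h2, eq_comm] using (h.col hl (by simp) (by simp) ab).2.le (show c ∈ _ by simp)

theorem image_mem (d : Dist t) (x : X) {l : Set X} (hl : l ∈ L) : t x '' l ∈ L := by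
  obtain ⟨a, b, e, rfl⟩ := (h.mem l).1 hl
  exact (h.mem _).2 ⟨t x a, t x b, d x a b ▸ (h.inj x).ne e, by simp [Set.image_insert_eq, d x a b]⟩

theorem map (h' : PQd M s) {f : Y → X} (hf : Function.Injective f) (h1 : ∀ m ∈ M, f '' m ∈ L)
    (h2 : ∀ a b, t (f a) (f b) ≠ f b → ∃ m ∈ M, a ∈ m ∧ b ∈ m) (a b : Y) : f (s a b) = t (f a) (f b) := by
  by_cases e : s a b = b
  · rw [e]
    refine by_contra fun n => ?_
    obtain ⟨m, hm, ha, hb⟩ := h2 a b (Ne.symm n)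
    exact (h'.col hm ha hb fun k => (h.ne (Ne.symm n)).1 (congrArg f k)).1 e
  · have := h1 _ ((h'.mem _).2 ⟨a, b, e, rfl⟩)
    simp only [Set.image_insert_eq, Set.image_singleton] at this
    exact (h.third this (hf.ne (h'.ne e).1) (hf.ne (h'.ne e).2) (hf.ne e)).symm

theorem dist (d : ∀ x, ∀ l ∈ L, t x '' l ∈ L) : Dist t := fun x =>
  h.map h (h.inj x) (d x) fun a b e => ⟨_, d x _ ((h.mem _).2 ⟨_, _, e, rfl⟩), ⟨t x a, by simp, h.inv x a⟩,
    ⟨t x b, by simp, h.inv x b⟩⟩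

theorem subspace_iff {S : Set X} : IsSubspace L S ↔ ∀ a ∈ S, ∀ b ∈ S, t a b ∈ S := by
  refine ⟨fun k a ha b hb => ?_, fun k l hl a ha b hb ab a1 b1 => ?_⟩
  · by_cases e : t a b = b
    · rwa [e]
    · exact k _ ((h.mem _).2 ⟨a, b, e, rfl⟩) a ha b hb (h.ne e).1 (by simp) (by simp) (by simp)
  · rw [(h.col hl a1 b1 ab).2]
    rintro _ (rfl | rfl | rfl)
    exacts [ha, hb, k a ha b hb]

theorem isomorphic (h' : PQd M s) {f : Y → X} (hf : Function.Injective f) (h1 : ∀ a b, f (s a b) = t (f a) (f b))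
    {A : Set X} (h2 : A ⊆ Set.range f) (h3 : ∀ S : Set X, A ⊆ S → (∀ a ∈ S, ∀ b ∈ S, t a b ∈ S) → ∀ y, f y ∈ S) :
    Isomorphic (restrict L (span L A)) M := by
  rw [show span L A = Set.range f from Set.Subset.antisymm (Set.sInter_subset_of_mem ⟨h2, h.subspace_iff.2 (by
    rintro _ ⟨a, rfl⟩ _ ⟨b, rfl⟩
    exact ⟨_, h1 a b⟩)⟩) (by
      rintro _ ⟨y, rfl⟩ S hS
      exact h3 S hS.1 (h.subspace_iff.1 hS.2) y)]
  refine ⟨(Equiv.ofInjective f hf).symm, fun l => ?_⟩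
  obtain ⟨m, rfl⟩ := (Equiv.ofInjective f hf).surjective.image_surjective l
  rw [Equiv.symm_image_image, h'.mem]
  constructor
  · rintro ⟨l, hl, h4, e⟩
    obtain ⟨x, y, n, rfl⟩ := (h.mem l).1 hl
    obtain ⟨a, rfl⟩ := h4 (show x ∈ _ by simp)
    obtain ⟨b, rfl⟩ := h4 (show y ∈ _ by simp)
    refine ⟨a, b, fun k => n (by rw [← h1, k]), Set.ext fun c => ?_⟩
    simpa [← h1, hf.eq_iff, Subtype.ext_iff] using Set.ext_iff.1 e (Equiv.ofInjective f hf c)
  · rintro ⟨a, b, n, rfl⟩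
    refine ⟨_, (h.mem _).2 ⟨f a, f b, h1 a b ▸ hf.ne n, rfl⟩, by simp [Set.insert_subset_iff, ← h1], Set.ext fun c => ?_⟩
    obtain ⟨c, rfl⟩ := (Equiv.ofInjective f hf).surjective c
    simp [← h1, hf.eq_iff, Set.image_insert_eq, Subtype.ext_iff]

theorem image_mem_of_iso (h' : PQd M s) (d : Dist s) {A : Set X} (e : Isomorphic (restrict L (span L A)) M) {x : X}
    (hx : x ∈ span L A) {l : Set X} (hl : l ∈ L) (h1 : l ⊆ A) : t x '' l ∈ L := by
  obtain ⟨e, he⟩ := e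
  have hS : ∀ a ∈ span L A, ∀ b ∈ span L A, t a b ∈ span L A := fun a ha b hb T hT =>
    h.subspace_iff.1 hT.2 a (ha T hT) b (hb T hT)
  have k1 : ∀ m ∈ M, (fun y => (e.symm y : X)) '' m ∈ L := fun m hm => by
    obtain ⟨l, hl, a, b⟩ := (he (e.symm '' m)).2 (by rwa [Equiv.image_symm_image])
    rwa [← Set.image_image Subtype.val, b, show Subtype.val '' _ = l from Subtype.coe_image_of_subset a]
  have k2 : ∀ l ∈ L, l ⊆ span L A → e '' {x | (x : X) ∈ l} ∈ M := fun l hl a => (he _).1 ⟨l, hl, a, rfl⟩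
  have k3 := h.map h' (Subtype.val_injective.comp e.symm.injective) k1 fun a b n =>
    ⟨_, k2 _ ((h.mem _).2 ⟨_, _, n, rfl⟩) (by simp [Set.insert_subset_iff, hS]), ⟨e.symm a, by simp, by simp⟩,
      ⟨e.symm b, by simp, by simp⟩⟩
  have h2 : l ⊆ span L A := fun y hy T hT => hT.1 (h1 hy)
  have := k1 _ (h'.image_mem d (e ⟨x, hx⟩) (k2 l hl h2))
  simp only [Function.comp_apply] at k3
  simp only [Set.image_image, k3, Equiv.symm_apply_apply] at this
  rwa [← Set.image_image (t x) Subtype.val, show Subtype.val '' _ = l from Subtype.coe_image_of_subset h2] at this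

end PQd

/-- The third point in the affine plane of order three. -/
def afT (x y : Fin 2 → ZMod 3) : Fin 2 → ZMod 3 := -x - y

theorem pqd_af : PQd affinePlaneThree afT ∧ Dist afT := by
  have k : ∀ v w x : Fin 2 → ZMod 3, (∃ c : ZMod 3, x = v + c • w) ↔ x = v ∨ x = v + w ∨ x = afT v (v + w) := by
    decide +kernel
  refine ⟨⟨fun l => ⟨?_, ?_⟩, by decide +kernel, by decide +kernel, by decide +kernel⟩, by unfold Dist; decide +kernel⟩
  · rintro ⟨v, w, n, rfl⟩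
    exact ⟨v, v + w, (show ∀ v w : Fin 2 → ZMod 3, w ≠ 0 → afT v (v + w) ≠ v + w by decide +kernel) v w n,
      Set.ext (k v w)⟩
  · rintro ⟨v, y, n, rfl⟩
    obtain ⟨w, rfl⟩ : ∃ w, y = v + w := ⟨y - v, by simp⟩
    exact ⟨v, w, by rintro rfl; exact n (by revert v; decide +kernel), (Set.ext (k v w)).symm⟩

/-- The transposition attached to a point of the dual affine plane. -/
def duS (x : DualAffinePoint) : Equiv.Perm (Fin 4) :=
  Equiv.swap (x.1.min' (Finset.card_pos.1 (two_pos.trans_eq x.2.symm))) (x.1.max' (Finset.card_pos.1 (two_pos.trans_eq x.2.symm)))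

/-- The third point in the dual affine plane of order two. -/
def duT (x y : DualAffinePoint) : DualAffinePoint := ⟨y.1.map (duS x).toEmbedding, (Finset.card_map _).trans y.2⟩

theorem pqd_du : PQd dualAffinePlaneTwo duT ∧ Dist duT := by
  refine ⟨⟨fun l => ⟨?_, ?_⟩, by decide +kernel, by decide +kernel, by decide +kernel⟩, by unfold Dist; decide +kernel⟩
  · rintro ⟨i, rfl⟩
    obtain ⟨x, y, n, e⟩ := (show ∀ i : Fin 4, ∃ x y, duT x y ≠ y ∧ ∀ z : DualAffinePoint,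
      i ∉ z.1 ↔ z = x ∨ z = y ∨ z = duT x y by decide +kernel) i
    exact ⟨x, y, n, Set.ext e⟩
  · rintro ⟨x, y, n, rfl⟩
    obtain ⟨i, e⟩ := (show ∀ x y, duT x y ≠ y → ∃ i : Fin 4, ∀ z : DualAffinePoint,
      z = x ∨ z = y ∨ z = duT x y ↔ i ∉ z.1 by decide +kernel) x y n
    exact ⟨i, Set.ext e⟩

theorem dist_lineMap (h : IsFischerSpace L) : Dist (lineMap L) := by
  have k := pqd_lineMap h.1 h.2.1
  refine k.dist fun x l hl => ?_
  by_cases e : ∀ y ∈ l, lineMap L x y ∈ l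
  · rwa [Set.eq_of_subset_of_ncard_le (Set.image_subset_iff.2 e) (Set.ncard_image_of_injective _ (k.inj x)).ge
      (Set.finite_of_ncard_ne_zero (k.ncard hl ▸ three_ne_zero))]
  push Not at e
  obtain ⟨y, hy, e⟩ := e
  have n : lineMap L x y ≠ y := fun a => e (a.symm ▸ hy)
  have hx : x ∈ span L (l ∪ {x, y, lineMap L x y}) := fun T hT => hT.1 (by simp)
  exact (h.2.2 l hl _ ((k.mem _).2 ⟨x, y, n, rfl⟩) (fun a => e (a ▸ by simp)) ⟨y, hy, by simp⟩).elim
    (fun a => k.image_mem_of_iso pqd_du.1 pqd_du.2 a hx hl Set.subset_union_left)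
    fun a => k.image_mem_of_iso pqd_af.1 pqd_af.2 a hx hl Set.subset_union_left

theorem fischer_perm (h : IsFischerSpace L) (hn : IsNondegenerate L) :
    (∀ x : X, ∃ σ : Equiv.Perm X, ⇑σ = lineMap L x ∧ orderOf σ = 2 ∧ IsIso L L σ) ∧
      IsThreeTranspositionSet {σ : Equiv.Perm X | ∃ x : X, ⇑σ = lineMap L x} := by
  have k := pqd_lineMap h.1 h.2.1
  have d := dist_lineMap h
  have o : ∀ σ : Equiv.Perm X, (∃ x : X, ⇑σ = lineMap L x) → orderOf σ = 2 := fun σ ⟨x, e⟩ => by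
    refine orderOf_two_of_sq (Equiv.ext fun y => by simp [e, k.inv]) fun a => ?_
    obtain ⟨l, hl, hx⟩ := hn x
    obtain ⟨y, hy, n⟩ := Set.exists_ne_of_one_lt_ncard (k.ncard hl ▸ by decide : 1 < l.ncard) x
    exact (k.col hl hx hy n.symm).1 (by rw [← e, a]; rfl)
  refine ⟨fun x => ⟨Function.Involutive.toPerm _ (k.inv x), rfl, o _ ⟨x, rfl⟩, fun l => ⟨k.image_mem d x, fun a => ?_⟩⟩,
    o, fun σ hσ τ hτ => ?_⟩
  · simpa [Set.image_image, k.inv] using k.image_mem d x (l := lineMap L x '' l) a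
  have s1 := mul_self_of_orderOf_two (o σ hσ)
  have s2 := mul_self_of_orderOf_two (o τ hτ)
  obtain ⟨x, a⟩ := hσ
  obtain ⟨y, b⟩ := hτ
  rw [← commute_iff_mul_sq s1 s2, ← braid_iff_mul_cube s1 s2]
  refine (em (lineMap L x y = y)).imp (fun e => Equiv.ext fun z => ?_) fun e => Equiv.ext fun z => ?_
  · simp only [Equiv.Perm.mul_apply, a, b, d x y, e]
  · simp only [Equiv.Perm.mul_apply, a, b]
    rw [d x y, d y x, k.inv, k.inv, k.symm x y e]

variable {G : Type*} [Group G] {D : Set G}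

theorem fischer_lines (h : FS D) : IsFischerSpace (threeTranspositionLines D) := by
  have k : PQd (threeTranspositionLines D) fun x y => ⟨x * y * x, h.mem x.2 y.2⟩ := by
    have e : ∀ x y : D, (⟨x * y * x, h.mem x.2 y.2⟩ : D) ≠ y ↔ ¬ Commute (x : G) y := fun x y =>
      Subtype.ext_iff.not.trans ⟨mt (h.cj_eq x.2), h.cj_ne_right x.2 y.2⟩
    refine ⟨fun l => exists_congr fun x => exists_congr fun y => (and_congr_right fun n => eq_iff_eq_cancel_left.2
      (Set.ext fun z => ?_)).trans (and_congr_left' (e x y).symm), fun x y => Subtype.ext (cj_cj (h.sq x.2) _), fun x => Subtype.ext (h.cj_self x.2),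
      fun x y n => Subtype.ext (h.braid x.2 y.2 ((e x y).1 n)).symm⟩
    simp [Subtype.ext_iff, h.inv y.2, h.braid x.2 y.2 n]
  refine ⟨k.partialLinear, fun _ => k.ncard, fun l hl m hm n ⟨a, ha, ha'⟩ => ?_⟩
  have du : ∀ b ∈ l, ∀ c ∈ m, b ≠ a → c ≠ a → Commute (b : G) c →
      Isomorphic (restrict (threeTranspositionLines D) (span _ (l ∪ m))) dualAffinePlaneTwo := fun b hb c hc ba ca bc => by
    obtain ⟨h1, rfl⟩ := k.col hl ha hb ba.symm
    obtain ⟨h2, rfl⟩ := k.col hm ha' hc ca.symm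
    obtain ⟨φ, i, e1, e2, e3, -⟩ := TS.exists_hom_four h.ts b.2 a.2 c.2 (fun e => n (by rw [Subtype.ext e])) bc
      (fun e => h1 (Subtype.ext (h.cj_eq a.2 e.symm))) fun e => h2 (Subtype.ext (h.cj_eq a.2 e))
    have p : ∀ S : Set G, ↑b ∈ S → ↑a ∈ S → ↑c ∈ S → (∀ x ∈ S, ∀ y ∈ S, x * y * x ∈ S) → ∀ y, φ (duS y) ∈ S :=
      fun S s1 s2 s3 s y => by
        have s4 := s _ s2 _ s1
        have s5 := s _ s2 _ s3
        have s6 := s _ s1 _ s5
        simp only [← e1, ← e2, ← e3, ← map_mul] at s1 s2 s3 s4 s5 s6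
        rcases (show ∀ y, duS y = .swap 0 1 ∨ duS y = .swap 1 2 ∨ duS y = .swap 2 3 ∨ duS y = .swap 1 2 * .swap 0 1 * .swap 1 2 ∨
          duS y = .swap 1 2 * .swap 2 3 * .swap 1 2 ∨ duS y = .swap 0 1 * (.swap 1 2 * .swap 2 3 * .swap 1 2) * .swap 0 1 by
            decide +kernel) y with e | e | e | e | e | e <;> rwa [e]
    have q : ∀ x y, φ (duS (duT x y)) = φ (duS x) * φ (duS y) * φ (duS x) := fun x y => by
      rw [← map_mul, ← map_mul, (show ∀ x y, duS (duT x y) = duS x * duS y * duS x by decide +kernel) x y]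
    refine k.isomorphic pqd_du.1 (f := fun y => ⟨φ (duS y), p D b.2 a.2 c.2 h.conj y⟩)
      (fun x y e => (show Function.Injective duS by decide +kernel) (i (congrArg Subtype.val e)))
      (fun x y => Subtype.ext (q x y)) ?_ fun S s1 s y => ?_
    · have r1 : ∃ y, φ (duS y) = a := ⟨⟨{1, 2}, rfl⟩, e2⟩
      have r2 : ∃ y, φ (duS y) = b := ⟨⟨{0, 1}, rfl⟩, e1⟩
      have r3 : ∃ y, φ (duS y) = c := ⟨⟨{2, 3}, rfl⟩, e3⟩
      have r4 : ∀ u v, (∃ y, φ (duS y) = u) → (∃ y, φ (duS y) = v) → ∃ y, φ (duS y) = u * v * u := by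
        rintro _ _ ⟨x, rfl⟩ ⟨y, rfl⟩
        exact ⟨_, q x y⟩
      simp [Set.insert_subset_iff, Subtype.ext_iff, r1, r2, r3, r4 _ _ r1 r2, r4 _ _ r1 r3]
    · obtain ⟨z, hz, e⟩ := p (Subtype.val '' S) ⟨b, s1 (by simp), rfl⟩ ⟨a, s1 (by simp), rfl⟩ ⟨c, s1 (by simp), rfl⟩ (by
        rintro _ ⟨x, hx, rfl⟩ _ ⟨y, hy, rfl⟩
        exact ⟨_, s x hx y hy, rfl⟩) y
      exact (Subtype.ext e : z = ⟨_, _⟩) ▸ hz
  obtain ⟨b, hb, ba⟩ := Set.exists_ne_of_one_lt_ncard (k.ncard hl ▸ by decide : 1 < l.ncard) a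
  obtain ⟨c, hc, ca⟩ := Set.exists_ne_of_one_lt_ncard (k.ncard hm ▸ by decide : 1 < m.ncard) a
  obtain ⟨h1, e1⟩ := k.col hl ha hb ba.symm
  obtain ⟨h2, e2⟩ := k.col hm ha' hc ca.symm
  by_cases bc : Commute (b : G) c
  · exact Or.inl (du b hb c hc ba ca bc)
  by_cases bc' : Commute (c : G) (a * b * a)
  · exact Or.inl (du ⟨_, h.mem a.2 b.2⟩ (e1.ge (by simp)) c hc (k.ne h1).2 ca bc'.symm)
  obtain ⟨P, hP, p1, p2, p3⟩ := h.exists_plane a.2 b.2 c.2 (fun e => h1 (Subtype.ext (h.cj_eq a.2 e)))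
    (fun e => h2 (Subtype.ext (h.cj_eq a.2 e))) bc bc'
  refine Or.inr (k.isomorphic pqd_af.1 (f := fun y => ⟨P (y 0, y 1), hP.mem _⟩)
    (fun x y e => (finTwoArrowEquiv _).injective (hP.inj (congrArg Subtype.val e)))
    (fun x y => Subtype.ext (hP.rel (x 0, x 1) (y 0, y 1)).symm) ?_ fun S s1 s y => ?_)
  · have r : ∀ α, ∃ y : Fin 2 → ZMod 3, P (y 0, y 1) = P α := fun α => ⟨![α.1, α.2], rfl⟩
    simp [e1, e2, Set.insert_subset_iff, Subtype.ext_iff, ← p1, ← p2, ← p3, hP.rel, r]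
  · refine plane_ind (p := fun α => (⟨P α, hP.mem α⟩ : D) ∈ S) ?_ ?_ ?_ (fun α β a1 a2 => ?_) _
    · simpa only [p1] using s1 (Or.inl ha)
    · simpa only [p2] using s1 (Or.inl hb)
    · simpa only [p3] using s1 (Or.inr hc)
    · simpa only [hP.rel] using s _ a1 _ a2

end Cfsg.Lib.ThreeTr
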